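import Cfsg.Agent.Lib.Helper37.CommInvol

/-!
A finite multiplicatively closed set `E` of isometries of a nondegenerate alternating form
(characteristic `≠ 2`) with `x² = ±1` and `xy = ±yx` has at most `k · 4 · 2^k` elements for some
`k ≤ dim V / 2`.   (Bound for the 2-rank of `PSp`.)
-/

set_option autoImplicit false

namespace Cfsg.Agent.Lib.Helper37.SpRank

open Module Cfsg.Agent.Lib.Helper37

variable {F V : Type*} [Field F] [AddCommGroup V] [Module F V]

/-- the character of a vector with respect to a finite set of endomorphisms -/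
noncomputable def chr (S : Finset (Module.End F V)) (v : V) : ↥S → Bool :=
  fun s => open Classical in decide (s.1 v = v)

theorem chr_eq_iff (S : Finset (Module.End F V)) (v w : V) :
    chr S v = chr S w ↔ ∀ s ∈ S, (s v = v ↔ s w = w) := by
  unfold chr
  constructor
  · intro h s hs
    have := congrFun h ⟨s, hs⟩
    simpa using this
  · intro h
    funext s
    simpa using h s.1 s.2

theorem eq_zero_of_eq_neg (h2 : (2 : F) ≠ 0) {v : V} (h : v = -v) : v = 0 := by
  have h3 : (2 : F) • v = 0 := by
    rw [two_smul]
    nth_rewrite 1 [h]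
    exact neg_add_cancel v
  rcases smul_eq_zero.1 h3 with h4 | h4
  · exact absurd h4 h2
  · exact h4

section anti

variable {c d e : Module.End F V}

theorem sq_mul_of_comm (h : c * d = d * c) : (c * d) * (c * d) = (c * c) * (d * d) := by
  calc (c * d) * (c * d) = c * (d * c) * d := by noncomm_ring
    _ = c * (c * d) * d := by rw [h]
    _ = (c * c) * (d * d) := by noncomm_ring

theorem triple_sq (hc : c * c = -1) (hd : d * d = -1) (he : e * e = -1)
    (hcd : c * d = -(d * c)) (hce : c * e = -(e * c)) (hde : d * e = -(e * d)) :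
    (c * d * e) * (c * d * e) = 1 := by
  have h1 : e * c = -(c * e) := by rw [hce, neg_neg]
  have h2 : d * c = -(c * d) := by rw [hcd, neg_neg]
  have h3 : e * d = -(d * e) := by rw [hde, neg_neg]
  calc (c * d * e) * (c * d * e) = c * d * (e * c) * d * e := by noncomm_ring
    _ = -(c * (d * c) * (e * d) * e) := by rw [h1]; noncomm_ring
    _ = -(c * (-(c * d)) * (-(d * e)) * e) := by rw [h2, h3]
    _ = -((c * c) * (d * d) * (e * e)) := by noncomm_ring
    _ = 1 := by rw [hc, hd, he]; noncomm_ring

end anti

theorem card_le [FiniteDimensional F V] [Nontrivial V] (h2 : (2 : F) ≠ 0)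
    (f : LinearMap.BilinForm F V) (falt : ∀ v, f v v = 0) (fnd : ∀ u, (∀ v, f u v = 0) → u = 0)
    (E : Finset (Module.End F V))
    (hmul : ∀ x ∈ E, ∀ y ∈ E, x * y ∈ E)
    (hf : ∀ x ∈ E, ∀ u v, f (x u) (x v) = f u v)
    (hsq : ∀ x ∈ E, x * x = 1 ∨ x * x = -1)
    (hcm : ∀ x ∈ E, ∀ y ∈ E, x * y = y * x ∨ x * y = -(y * x)) :
    ∃ k, 2 * k ≤ finrank F V ∧ E.card ≤ k * (4 * 2 ^ k) := by
  classical
  -- a maximal set of commuting involutions
  let 𝓕 := E.powerset.filter (fun S => (∀ s ∈ S, ∀ t ∈ S, s * t = t * s) ∧ ∀ s ∈ S, s * s = 1)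
  have h𝓕 : 𝓕.Nonempty := ⟨∅, by simp [𝓕]⟩
  obtain ⟨S, hS, hSmax⟩ := Finset.exists_max_image 𝓕 Finset.card h𝓕
  simp only [𝓕, Finset.mem_filter, Finset.mem_powerset] at hS
  obtain ⟨hSE, hScomm, hSinv⟩ := hS
  have hmax : ∀ x ∈ E, (∀ s ∈ S, s * x = x * s) → x * x = 1 → x ∈ S := by
    intro x hx hxs hxx
    by_contra hxS
    have hin : insert x S ∈ 𝓕 := by
      simp only [𝓕, Finset.mem_filter, Finset.mem_powerset]
      refine ⟨Finset.insert_subset hx hSE, ?_, ?_⟩
      · intro s hs t ht
        rcases Finset.mem_insert.1 hs with hs' | hs' <;> rcases Finset.mem_insert.1 ht with ht' | ht'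
        · rw [hs', ht']
        · rw [hs']; exact (hxs t ht').symm
        · rw [ht']; exact hxs s hs'
        · exact hScomm s hs' t ht'
      · intro s hs
        rcases Finset.mem_insert.1 hs with rfl | hs
        · exact hxx
        · exact hSinv s hs
    have := hSmax _ hin
    rw [Finset.card_insert_of_notMem hxS] at this
    omega
  -- left inverses
  have hinv : ∀ x ∈ E, ∃ x' : Module.End F V, x' * x = 1 := by
    intro x hx
    rcases hsq x hx with h | h
    · exact ⟨x, h⟩
    · exact ⟨-x, by rw [neg_mul, h, neg_neg]⟩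
  have hinj : ∀ x ∈ E, ∀ u v : V, x u = x v → u = v := by
    intro x hx u v huv
    obtain ⟨x', hx'⟩ := hinv x hx
    have h1 : ∀ w, x' (x w) = w := fun w => by
      have := congrArg (fun g : Module.End F V => g w) hx'
      simpa using this
    rw [← h1 u, huv, h1]
  -- eigenbasis
  obtain ⟨ι, b, hb⟩ := exists_basis_commonEig h2 (↑S : Set (Module.End F V)) S.finite_toSet
    (fun s hs t ht => hScomm s hs t ht) (fun s hs => hSinv s hs)
  have : Fintype ι := FiniteDimensional.fintypeBasisIndex b
  have hbne : ∀ i, b i ≠ 0 := fun i => b.ne_zero i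
  let X := Finset.univ.image (fun i => chr S (b i))
  -- (a)
  have ha : 2 * X.card ≤ finrank F V := by
    rw [finrank_eq_card_basis b, ← Finset.card_univ]
    apply Finset.mul_card_image_le_card
    intro a ha
    obtain ⟨i, -, rfl⟩ := Finset.mem_image.1 ha
    obtain ⟨j, hj⟩ : ∃ j, f (b i) (b j) ≠ 0 := by
      by_contra hcon
      push Not at hcon
      apply hbne i
      apply fnd
      intro v
      have : f (b i) = 0 := b.ext (fun j => by rw [hcon j]; rfl)
      rw [this]; rfl
    have hij : i ≠ j := by
      rintro rfl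
      exact hj (falt _)
    have hchr : chr S (b j) = chr S (b i) := by
      rw [chr_eq_iff]
      intro s hs
      have hpres := hf s (hSE hs) (b i) (b j)
      rcases hb i s hs with h1 | h1 <;> rcases hb j s hs with h3 | h3
      · exact ⟨fun _ => h1, fun _ => h3⟩
      · exfalso
        rw [h1, h3, map_neg] at hpres
        apply hj
        have : (2 : F) * f (b i) (b j) = 0 := by linear_combination -hpres
        rcases mul_eq_zero.1 this with h | h
        · exact absurd h h2
        · exact h
      · exfalso
        rw [h1, h3, map_neg, LinearMap.neg_apply] at hpres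
        apply hj
        have : (2 : F) * f (b i) (b j) = 0 := by linear_combination -hpres
        rcases mul_eq_zero.1 this with h | h
        · exact absurd h h2
        · exact h
      · constructor
        · intro h
          exact absurd (eq_zero_of_eq_neg h2 (h.symm.trans h3)) (hbne j)
        · intro h
          exact absurd (eq_zero_of_eq_neg h2 (h.symm.trans h1)) (hbne i)
    have : 1 < (Finset.univ.filter (fun x => chr S (b x) = chr S (b i))).card := by
      rw [Finset.one_lt_card]
      exact ⟨i, by simp, j, by simp [hchr], hij⟩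
    exact this
  -- (b)
  have hbd : S.card ≤ 2 ^ X.card := by
    have hinj' : Function.Injective (fun (s : ↥S) (c : ↥X) => c.1 s) := by
      intro s t hst
      apply Subtype.ext
      apply b.ext
      intro i
      have h1 := congrFun hst ⟨chr S (b i), Finset.mem_image.2 ⟨i, Finset.mem_univ _, rfl⟩⟩
      have h3 : (s.1 (b i) = b i) ↔ (t.1 (b i) = b i) := by
        simpa [chr] using h1
      rcases hb i s.1 s.2 with hs | hs
      · rw [hs, h3.1 hs]
      · rcases hb i t.1 t.2 with ht | ht
        · rw [h3.2 ht, ht]
        · rw [hs, ht]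
    have := Fintype.card_le_of_injective _ hinj'
    simpa using this
  -- (c)
  let C := E.filter (fun g => ∀ s ∈ S, s * g = g * s)
  have hCmem : ∀ g, g ∈ C ↔ g ∈ E ∧ ∀ s ∈ S, s * g = g * s := by
    intro g; simp [C]
  have hCmul : ∀ g ∈ C, ∀ h ∈ C, g * h ∈ C := by
    intro g hg h hh
    rw [hCmem] at hg hh ⊢
    refine ⟨hmul g hg.1 h hh.1, fun s hs => ?_⟩
    rw [← mul_assoc, hg.2 s hs, mul_assoc, hh.2 s hs, mul_assoc]
  have hCS : ∀ g ∈ C, g * g = 1 → g ∈ S := fun g hg h => by
    rw [hCmem] at hg
    exact hmax g hg.1 hg.2 h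
  have hCneg : ∀ g ∈ C, g ∉ S → g * g = -1 := fun g hg h => by
    rcases hsq g ((hCmem g).1 hg).1 with h1 | h1
    · exact absurd (hCS g hg h1) h
    · exact h1
  have hCanti : ∀ g ∈ C, ∀ h ∈ C, g ∉ S → h ∉ S → g * h ∉ S → g * h = -(h * g) := by
    intro g hg h hh hgS hhS hghS
    rcases hcm g ((hCmem g).1 hg).1 h ((hCmem h).1 hh).1 with h1 | h1
    · exfalso
      apply hghS
      apply hCS _ (hCmul g hg h hh)
      rw [sq_mul_of_comm h1, hCneg g hg hgS, hCneg h hh hhS]
      simp
    · exact h1
  have hcov : ∃ c' d' e' : Module.End F V,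
      C ⊆ S ∪ S.image (c' * ·) ∪ S.image (d' * ·) ∪ S.image (e' * ·) := by
    by_cases hc1 : C ⊆ S
    · refine ⟨1, 1, 1, fun g hg => ?_⟩
      simp only [Finset.mem_union]
      exact Or.inl (Or.inl (Or.inl (hc1 hg)))
    · obtain ⟨c, hcC, hcS⟩ := Finset.not_subset.1 hc1
      obtain ⟨c', hc'⟩ := hinv c ((hCmem c).1 hcC).1
      by_cases hc2 : ∀ e ∈ C, e ∈ S ∨ c * e ∈ S
      · refine ⟨c', 1, 1, fun g hg => ?_⟩
        simp only [Finset.mem_union, Finset.mem_image]
        rcases hc2 g hg with h | h
        · exact Or.inl (Or.inl (Or.inl h))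
        · exact Or.inl (Or.inl (Or.inr ⟨c * g, h, by rw [← mul_assoc, hc', one_mul]⟩))
      · push Not at hc2
        obtain ⟨d, hdC, hdS, hcdS⟩ := hc2
        obtain ⟨d', hd'⟩ := hinv d ((hCmem d).1 hdC).1
        have hcdC := hCmul c hcC d hdC
        obtain ⟨e', he'⟩ := hinv (c * d) ((hCmem _).1 hcdC).1
        refine ⟨c', d', e', fun g hg => ?_⟩
        simp only [Finset.mem_union, Finset.mem_image]
        by_cases h1 : g ∈ S
        · exact Or.inl (Or.inl (Or.inl h1))
        by_cases h3 : c * g ∈ S
        · exact Or.inl (Or.inl (Or.inr ⟨c * g, h3, by rw [← mul_assoc, hc', one_mul]⟩))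
        by_cases h4 : d * g ∈ S
        · exact Or.inl (Or.inr ⟨d * g, h4, by rw [← mul_assoc, hd', one_mul]⟩)
        refine Or.inr ⟨c * d * g, ?_, by rw [← mul_assoc, he', one_mul]⟩
        apply hCS _ (hCmul _ hcdC g hg)
        exact triple_sq (hCneg c hcC hcS) (hCneg d hdC hdS) (hCneg g hg h1)
          (hCanti c hcC d hdC hcS hdS hcdS) (hCanti c hcC g hg hcS h1 h3)
          (hCanti d hdC g hg hdS h1 h4)
  have hc : C.card ≤ 4 * S.card := by
    obtain ⟨c', d', e', hcov⟩ := hcov
    have h1 := Finset.card_le_card hcov
    have h3 := Finset.card_union_le (S ∪ S.image (c' * ·) ∪ S.image (d' * ·)) (S.image (e' * ·))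
    have h4 := Finset.card_union_le (S ∪ S.image (c' * ·)) (S.image (d' * ·))
    have h5 := Finset.card_union_le S (S.image (c' * ·))
    have h6 := Finset.card_image_le (s := S) (f := (c' * ·))
    have h7 := Finset.card_image_le (s := S) (f := (d' * ·))
    have h8 := Finset.card_image_le (s := S) (f := (e' * ·))
    omega
  -- (d)
  obtain ⟨i0⟩ : Nonempty ι := b.index_nonempty
  have hv0 := hbne i0
  have hL : ∀ g ∈ E, ∀ s ∈ S, s * g = g * s ↔ (s (g (b i0)) = g (b i0) ↔ s (b i0) = b i0) := by
    intro g hg s hs
    constructor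
    · intro h
      have h1 : s (g (b i0)) = g (s (b i0)) := by
        have := congrArg (fun x : Module.End F V => x (b i0)) h
        simpa using this
      rw [h1]
      exact ⟨fun h3 => hinj g hg _ _ h3, fun h3 => by rw [h3]⟩
    · intro h
      rcases hcm s (hSE hs) g hg with h1 | h1
      · exact h1
      · exfalso
        have h3 : s (g (b i0)) = - g (s (b i0)) := by
          have := congrArg (fun x : Module.End F V => x (b i0)) h1
          simpa using this
        rcases hb i0 s hs with h4 | h4
        · have h5 := h.2 h4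
          rw [h3, h4] at h5
          have h6 := eq_zero_of_eq_neg h2 h5.symm
          exact hv0 (hinj g hg _ _ (by rw [h6, map_zero]))
        · have h5 : s (g (b i0)) = g (b i0) := by rw [h3, h4, map_neg, neg_neg]
          have h6 := h.1 h5
          exact hv0 (eq_zero_of_eq_neg h2 (h6.symm.trans h4))
  have hd : E.card ≤ C.card * X.card := by
    have hsub : E.image (fun g => chr S (g (b i0))) ⊆ X := by
      intro a ha
      obtain ⟨g, hg, rfl⟩ := Finset.mem_image.1 ha
      have hw : g (b i0) ≠ 0 := fun h => hv0 (hinj g hg _ _ (by rw [h, map_zero]))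
      obtain ⟨j, hj⟩ : ∃ j, b.repr (g (b i0)) j ≠ 0 := by
        by_contra hcon
        push Not at hcon
        apply hw
        apply b.repr.injective
        ext j
        rw [hcon j]; simp
      refine Finset.mem_image.2 ⟨j, Finset.mem_univ _, ?_⟩
      rw [chr_eq_iff]
      intro s hs
      -- coordinates
      have hco : ∀ w, b.repr (s w) j = eigSign b s j * b.repr w j := by
        intro w
        have : (b.coord j) ∘ₗ s = eigSign b s j • b.coord j := by
          apply b.ext
          intro k
          simp only [LinearMap.comp_apply, LinearMap.smul_apply, Basis.coord_apply, smul_eq_mul]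
          rw [eigSign_spec b s k (hb k s hs), map_smul, Finsupp.smul_apply, Basis.repr_self,
            smul_eq_mul]
          by_cases hkj : k = j
          · subst hkj; rfl
          · rw [Finsupp.single_apply, if_neg hkj, mul_zero, mul_zero]
        have h3 := congrArg (fun φ : V →ₗ[F] F => φ w) this
        simpa using h3
      have hsw : s (g (b i0)) = g (b i0) ∨ s (g (b i0)) = - g (b i0) := by
        rcases hcm s (hSE hs) g hg with h1 | h1
        · have h3 : s (g (b i0)) = g (s (b i0)) := by
            have := congrArg (fun x : Module.End F V => x (b i0)) h1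
            simpa using this
          rcases hb i0 s hs with h4 | h4
          · left; rw [h3, h4]
          · right; rw [h3, h4, map_neg]
        · have h3 : s (g (b i0)) = - g (s (b i0)) := by
            have := congrArg (fun x : Module.End F V => x (b i0)) h1
            simpa using this
          rcases hb i0 s hs with h4 | h4
          · right; rw [h3, h4]
          · left; rw [h3, h4, map_neg, neg_neg]
      have hcj := hco (g (b i0))
      constructor
      · intro h
        -- s b_j = b_j
        rcases hsw with h3 | h3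
        · exact h3
        · exfalso
          have h4 : eigSign b s j = 1 := by
            unfold eigSign; rw [if_pos h]
          rw [h3, h4, one_mul, map_neg, Finsupp.neg_apply] at hcj
          apply hj
          have : (2 : F) * b.repr (g (b i0)) j = 0 := by linear_combination -hcj
          rcases mul_eq_zero.1 this with h | h
          · exact absurd h h2
          · exact h
      · intro h
        by_contra hne
        have h4 : eigSign b s j = -1 := by
          unfold eigSign; rw [if_neg hne]
        rw [h, h4] at hcj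
        apply hj
        have : (2 : F) * b.repr (g (b i0)) j = 0 := by linear_combination hcj
        rcases mul_eq_zero.1 this with h | h
        · exact absurd h h2
        · exact h
    have h1 := Finset.card_le_mul_card_image (f := fun g => chr S (g (b i0))) E C.card (by
      intro a ha
      obtain ⟨g0, hg0, rfl⟩ := Finset.mem_image.1 ha
      apply Finset.card_le_card_of_injOn (fun x => g0 * x)
      · intro x hx
        simp only [Finset.coe_filter, Set.mem_ofPred_eq] at hx
        obtain ⟨hxE, hx⟩ := hx
        rw [chr_eq_iff] at hx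
        show g0 * x ∈ C
        rw [hCmem]
        refine ⟨hmul g0 hg0 x hxE, fun s hs => ?_⟩
        have h3 : s * x = x * s ↔ s * g0 = g0 * s := by
          rw [hL x hxE s hs, hL g0 hg0 s hs, hx s hs]
        rcases hcm s (hSE hs) g0 hg0 with h4 | h4
        · rw [← mul_assoc, h4, mul_assoc, h3.2 h4, mul_assoc]
        · rcases hcm s (hSE hs) x hxE with h5 | h5
          · rw [← mul_assoc, h3.1 h5, mul_assoc, h5, mul_assoc]
          · rw [← mul_assoc, h4, neg_mul, mul_assoc, h5, mul_neg, neg_neg, mul_assoc]
      · intro x hx y hy hxy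
        obtain ⟨g', hg'⟩ := hinv g0 hg0
        have := congrArg (fun z => g' * z) hxy
        simpa [← mul_assoc, hg'] using this)
    exact h1.trans (Nat.mul_le_mul_left _ (Finset.card_le_card hsub))
  refine ⟨X.card, ha, ?_⟩
  calc E.card ≤ C.card * X.card := hd
    _ ≤ (4 * S.card) * X.card := Nat.mul_le_mul_right _ hc
    _ ≤ (4 * 2 ^ X.card) * X.card := Nat.mul_le_mul_right _ (Nat.mul_le_mul_left _ hbd)
    _ = X.card * (4 * 2 ^ X.card) := Nat.mul_comm _ _

end Cfsg.Agent.Lib.Helper37.SpRank
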