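import Cfsg.Agent.Lib.Helper37.SpRank
import Cfsg.Agent.Lib.Helper5.SpCenter
import Cfsg.Prelude.Def_Classical

/-!
Elementary abelian 2-subgroups of `PSp_{2m}(q)`, `q` odd, have order at most `m · 2^(m+1)`.
-/

set_option autoImplicit false

namespace Cfsg.Agent.Lib.Helper37.SpRank

open Module Matrix Cfsg.Agent.Lib.Helper13 Cfsg.Agent.Lib.Helper5

variable {F : Type*} [Field F] {m : ℕ}

/-- the symplectic form as a bilinear form -/
noncomputable def sympBilin (m : ℕ) (F : Type*) [Field F] : LinearMap.BilinForm F (Fin m ⊕ Fin m → F) :=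
  LinearMap.mk₂ F (Cfsg.sympForm m F) sympForm_add_left
    (fun c u v => by rw [sympForm_smul_left, smul_eq_mul]) sympForm_add_right
    (fun c u v => by rw [sympForm_smul_right, smul_eq_mul])

theorem sympBilin_apply (u v : Fin m ⊕ Fin m → F) : sympBilin m F u v = Cfsg.sympForm m F u v := rfl

/-- `Sp` acting on the natural module -/
noncomputable def rho (x : Matrix.symplecticGroup (Fin m) F) : Module.End F (Fin m ⊕ Fin m → F) :=
  Matrix.toLin' x.1

theorem rho_apply (x : Matrix.symplecticGroup (Fin m) F) (v : Fin m ⊕ Fin m → F) :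
    rho x v = x.1 *ᵥ v := by
  unfold rho; rw [Matrix.toLin'_apply]

theorem rho_mul (x y : Matrix.symplecticGroup (Fin m) F) : rho (x * y) = rho x * rho y := by
  unfold rho
  rw [Module.End.mul_eq_comp, ← Matrix.toLin'_mul]
  rfl

theorem rho_injective : Function.Injective (rho (F := F) (m := m)) := by
  intro x y h
  apply Subtype.ext
  exact Matrix.toLin'.injective h

theorem center_cases (hm : 1 ≤ m) (z : Matrix.symplecticGroup (Fin m) F)
    (hz : z ∈ Subgroup.center (Matrix.symplecticGroup (Fin m) F)) :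
    rho z = 1 ∨ rho z = -1 := by
  obtain ⟨a, ha⟩ := sp_center_scalar m z hz
  have h : ∀ x : Fin m ⊕ Fin m → F, Matrix.scalar (Fin m ⊕ Fin m) a *ᵥ x = a • x := by
    intro x
    ext i
    simp [Matrix.mulVec_diagonal]
  have hsq : a * a = 1 := by
    have h1 := sp_preserves z (Pi.single (Sum.inr ⟨0, hm⟩) 1) (Pi.single (Sum.inl ⟨0, hm⟩) 1)
    rw [ha, h, h, sympForm_smul_left, sympForm_smul_right, sympForm_single_inl_right] at h1
    simp at h1
    exact h1
  have h3 : (a - 1) * (a + 1) = 0 := by linear_combination hsq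
  rcases mul_eq_zero.1 h3 with h4 | h4
  · left
    apply LinearMap.ext
    intro v
    rw [rho_apply, ha, h, sub_eq_zero.1 h4, one_smul]; rfl
  · right
    apply LinearMap.ext
    intro v
    rw [rho_apply, ha, h, eq_neg_of_add_eq_zero_left h4, neg_smul, one_smul]; rfl

theorem card_le_PSp [Fintype F] (h2 : (2 : F) ≠ 0) (hm : 1 ≤ m) (A : Subgroup (Cfsg.PSp m F))
    (hc : ∀ a ∈ A, ∀ b ∈ A, a * b = b * a) (he : ∀ a ∈ A, a ^ 2 = 1) :
    Nat.card (Subgroup.center (Matrix.symplecticGroup (Fin m) F)) * Nat.card A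
      ≤ m * (4 * 2 ^ m) := by
  classical
  let Z := Subgroup.center (Matrix.symplecticGroup (Fin m) F)
  let E : Subgroup (Matrix.symplecticGroup (Fin m) F) := A.comap (QuotientGroup.mk' Z)
  have : Finite (Matrix.symplecticGroup (Fin m) F) := Subtype.finite
  have hcardE : Nat.card E = Nat.card Z * Nat.card A := by
    have h1 := E.card_mul_index
    have h3 : E.index = A.index :=
      Subgroup.index_comap_of_surjective A (QuotientGroup.mk'_surjective Z)
    have h4 := A.card_mul_index
    have h5 := Subgroup.card_eq_card_quotient_mul_card_subgroup Z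
    have h6 : A.index ≠ 0 := Subgroup.index_ne_zero_of_finite
    rw [h3, h5, ← h4] at h1
    have : Nat.card E * A.index = (Nat.card Z * Nat.card A) * A.index := by
      rw [h1]; ring
    exact Nat.eq_of_mul_eq_mul_right (Nat.pos_of_ne_zero h6) this
  have : Nonempty (Fin m ⊕ Fin m) := ⟨Sum.inl ⟨0, hm⟩⟩
  let 𝓔 : Finset (Module.End F (Fin m ⊕ Fin m → F)) := (Set.toFinite (rho '' (E : Set _))).toFinset
  have hmem : ∀ x, x ∈ 𝓔 ↔ ∃ g ∈ E, rho g = x := by
    intro x; simp [𝓔]
  have hcard𝓔 : 𝓔.card = Nat.card E := by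
    rw [← Set.ncard_eq_toFinset_card _, Set.ncard_image_of_injective _ rho_injective,
      ← Nat.card_coe_set_eq]
    rfl
  obtain ⟨k, hk, hle⟩ := card_le h2 (sympBilin m F) (fun v => sympForm_self v)
    (fun u hu => sympForm_nondeg u hu) 𝓔
    (by
      intro x hx y hy
      obtain ⟨g, hg, rfl⟩ := (hmem x).1 hx
      obtain ⟨h, hh, rfl⟩ := (hmem y).1 hy
      exact (hmem _).2 ⟨g * h, E.mul_mem hg hh, rho_mul g h⟩)
    (by
      intro x hx u v
      obtain ⟨g, hg, rfl⟩ := (hmem x).1 hx
      rw [sympBilin_apply, rho_apply, rho_apply]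
      exact sp_preserves g u v)
    (by
      intro x hx
      obtain ⟨g, hg, rfl⟩ := (hmem x).1 hx
      rw [← rho_mul]
      apply center_cases hm
      have h1 := he _ hg
      rw [← (QuotientGroup.eq_one_iff (N := Z) (g * g)), ← pow_two]
      exact h1)
    (by
      intro x hx y hy
      obtain ⟨g, hg, rfl⟩ := (hmem x).1 hx
      obtain ⟨h, hh, rfl⟩ := (hmem y).1 hy
      have h1 := hc _ hg _ hh
      have h3 : (g * h) * (h * g)⁻¹ ∈ Z := by
        rw [← (QuotientGroup.eq_one_iff (N := Z) _)]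
        have : ((g * h : Matrix.symplecticGroup (Fin m) F) : Cfsg.PSp m F)
            = ((h * g : Matrix.symplecticGroup (Fin m) F) : Cfsg.PSp m F) := h1
        rw [QuotientGroup.mk_mul, QuotientGroup.mk_inv, this, mul_inv_cancel]
      have h4 : rho (g * h) = rho ((g * h) * (h * g)⁻¹) * rho (h * g) := by
        rw [← rho_mul, inv_mul_cancel_right]
      rw [← rho_mul, ← rho_mul, h4]
      rcases center_cases hm _ h3 with h5 | h5
      · left; rw [h5, one_mul]
      · right; rw [h5]; exact _root_.neg_one_mul (rho (h * g)))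
  have hfr : finrank F (Fin m ⊕ Fin m → F) = 2 * m := by
    simp; ring
  rw [hfr] at hk
  have hkm : k ≤ m := by omega
  rw [hcard𝓔, hcardE] at hle
  refine hle.trans ?_
  exact Nat.mul_le_mul hkm (Nat.mul_le_mul_left _ (Nat.pow_le_pow_right (by norm_num) hkm))

end Cfsg.Agent.Lib.Helper37.SpRank
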